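import Cfsg.Agent.Lib.HNR.Conn
import Cfsg.Agent.Lib.Tech.SylowIn
import Cfsg.Agent.Lib.Transfer.Thompson

/-! Standard subgroup `2.HS`: overgroups of a group with the local data of `HN` -/

set_option autoImplicit false
set_option linter.unusedSectionVars false

namespace CfsgLib.HNS

open Subgroup CfsgLib.HNR QS Conn

theorem TIHyp_map {C₀ C : Type*} [Group C₀] [Group C] {z : C₀} {T₀ : Set C₀} {Q : Subgroup C₀} (h : TIHyp z T₀ Q)
    (f : C₀ →* C) (hf : Function.Injective f) {T : Set C} (hT : ∀ x, f x ∈ T ↔ x ∈ T₀) (zc : ∀ g, g * f z = f z * g)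
    (T2 : ∀ s ∈ T, s * s = 1) (Tz : ∀ s ∈ T, s * f z ∈ T) (Tc : ∀ s ∈ T, ∀ g, g * s * g⁻¹ ∈ T)
    (Tt : ∀ s ∈ T, ∀ s' ∈ T, IsConj s s')
    (st : ∀ s ∈ T₀, ∀ s' ∈ T, (s' * f s * s'⁻¹ = f s ∨ s' * f s * s'⁻¹ = f s * f z) → s' ∈ f.range) :
    TIHyp (f z) T (Q.map f) := by
  have himg : T ∩ Q.map f = f '' (T₀ ∩ Q) := by
    ext s
    exact ⟨fun ⟨a, x, b, e⟩ => ⟨x, ⟨(hT x).1 (e ▸ a), b⟩, e⟩, fun ⟨x, a, e⟩ => e ▸ ⟨(hT x).2 a.1, x, a.2, rfl⟩⟩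
  have hW : ∀ W ≤ Q.map f, Nat.card W = Nat.card (W.comap f) ∧ W.comap f ≤ Q := fun W hW =>
    ⟨by rw [← card_map_of_injective hf, map_comap_eq_self (hW.trans (map_le_range f Q))],
      (comap_mono hW).trans (comap_map_eq_self_of_injective hf Q).le⟩
  refine ⟨(orderOf_injective f hf z).trans h.z2, zc, T2, Tz, Tc, Tt, mem_map_of_mem f h.zQ,
    (card_map_of_injective hf).trans h.card, ?_, ?_, ?_, ?_, ?_, fun W h1 h2 h3 => ?_, ?_⟩
  · rintro _ ⟨a, ha, rfl⟩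
    exact (h.sq a ha).imp (fun e => by rw [← map_mul, e, map_one]) fun e => by rw [← map_mul, e]
  · rintro _ ⟨a, ha, rfl⟩ hc
    exact (h.Z a ha fun b hb => hf (by rw [map_mul, map_mul, hc _ (mem_map_of_mem f hb)])).imp
      (fun e => by rw [e, map_one]) (congrArg f)
  · rw [himg, ← MonoidHom.map_closure]
    exact map_mono h.gen
  · rintro _ hs ⟨s, h1, rfl⟩ s' hs' e
    obtain ⟨x, rfl⟩ := st s ((hT s).1 hs) s' hs' e
    exact mem_map_of_mem f (h.star s ((hT s).1 hs) h1 x ((hT x).1 hs')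
      (e.imp (fun e => hf (by simpa using e)) fun e => hf (by simpa using e)))
  · rw [himg, Set.ncard_image_of_injective _ hf]
    exact h.n16
  · exact (hW W h1).1 ▸ h.F2 _ (hW W h1).2 h2 fun w hw e => h3 _ hw ((hT w).2 e)
  · rintro _ hs ⟨s, h0, rfl⟩ W h1 h2 h3 h4
    exact (hW W h1).1 ▸ h.F1 s ((hT s).1 hs) h0 _ (hW W h1).2 h2 (fun w hw e => h3 _ hw ((hT w).2 e))
      fun w hw => (hT _).1 (map_mul f s w ▸ h4 _ hw)

variable {H G : Type*} [Group H] [Group G] [Finite H] [Finite G] {ψ : H →* G} {t z : H} {R : Subgroup H}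

structure Ov0 (ψ : H →* G) (t z : H) (R : Subgroup H) : Prop where
  loc : LocQ t z R
  inj : Function.Injective ψ
  nz : ¬ IsConj (ψ t) (ψ z)
  rng : ∀ x, IsConj (ψ t) x → x * ψ t = ψ t * x → x ∈ ψ.range

structure Ov (ψ : H →* G) (t z : H) (R : Subgroup H) : Prop extends Ov0 ψ t z R where
  nrm : ∀ g, g * ψ t = ψ t * g → g ∈ normalizer (ψ.range : Set G)
  act : ∀ p, p * ψ t = ψ t * p → p * ψ z = ψ z * p → (∀ y ∈ R, ∃ y' ∈ R, p * ψ y * p⁻¹ = ψ y') ∧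
    ((∃ l ∈ R, IsConj t l ∧ IsConj t (t * l) ∧ (p * ψ l * p⁻¹ = ψ l ∨ p * ψ l * p⁻¹ = ψ l * ψ z)) ∨
      (∃ y ∈ R, p * ψ y * p⁻¹ = ψ y * ψ t ∨ p * ψ y * p⁻¹ = ψ y * ψ t * ψ z) ∨
      ∃ y ∈ R, p * p * ψ y * (p * p)⁻¹ ≠ ψ y ∧ p * p * ψ y * (p * p)⁻¹ ≠ ψ y * ψ z)
  cen : ∀ y, y * y = 1 → (∀ r ∈ R, y * ψ r = ψ r * y) → y ∈ R.map ψ

namespace Ov0

variable (h : Ov0 ψ t z R)
include h

theorem zz : ψ z * ψ z = 1 := by rw [← map_mul, h.loc.zz, map_one]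

theorem tt : ψ t * ψ t = 1 := by rw [← map_mul, h.loc.tt, map_one]

theorem z1 : ψ z ≠ 1 := fun e => h.loc.z_ne (h.inj (e.trans (map_one ψ).symm))

theorem ord {s : G} (hs : IsConj (ψ t) s) : orderOf s = 2 := by
  obtain ⟨g, rfl⟩ := isConj_iff.1 hs
  rw [← h.loc.t2, ← orderOf_injective ψ h.inj t]; simpa using (MulAut.conj g).orderOf_eq (ψ t)

theorem sq {s : G} (hs : IsConj (ψ t) s) : s * s = 1 := by rw [← pow_two, ← h.ord hs, pow_orderOf_eq_one]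

theorem cm {a b : H} : ψ a * ψ b = ψ b * ψ a ↔ a * b = b * a := by rw [← map_mul, ← map_mul, h.inj.eq_iff]

theorem cD {x : H} : IsConj (ψ t) (ψ x) ↔ IsConj t x :=
  ⟨fun e => ((h.loc.two_classes ((orderOf_injective ψ h.inj x).symm.trans (h.ord e))).resolve_right
    fun e' => h.nz (e.trans (ψ.map_isConj e'))).symm, ψ.map_isConj⟩

theorem cT {x : H} : ψ x ∈ TT (ψ t) (ψ z) ↔ x ∈ TT t z :=
  and_congr h.cD (and_congr h.cm (map_mul ψ x z ▸ h.cD))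

theorem cl {s s' : G} (h1 : IsConj (ψ t) s) (h2 : s ∈ ψ.range) (h3 : IsConj (ψ t) s') (h4 : s' * s = s * s') :
    s' ∈ ψ.range := by
  obtain ⟨x, rfl⟩ := h2
  obtain ⟨g, rfl⟩ := isConj_iff.1 (h.cD.1 h1)
  rw [map_mul, map_mul, map_inv] at h4
  rw [show s' = ψ g * ((ψ g)⁻¹ * s' * ψ g) * (ψ g)⁻¹ by group]
  exact mul_mem (mul_mem ⟨g, rfl⟩ (h.rng _ (isConj_conj' h3 _) (comm_conj' h4))) (inv_mem ⟨g, rfl⟩)

theorem fr {g : G} (h1 : g * ψ t * g⁻¹ ∈ ψ.range) : ∃ k, ∃ c, c * ψ t = ψ t * c ∧ g = ψ k * c := by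
  obtain ⟨x, hx⟩ := h1
  obtain ⟨k, rfl⟩ := isConj_iff.1 (h.cD.1 (hx ▸ isConj_iff.2 ⟨g, rfl⟩))
  refine ⟨k, (ψ k)⁻¹ * g, ?_, by group⟩
  calc (ψ k)⁻¹ * g * ψ t = (ψ k)⁻¹ * (g * ψ t * g⁻¹) * g := by group
    _ = _ := by rw [← hx, map_mul, map_mul, map_inv]; group

theorem tr {s : G} (hs : s ∈ TT (ψ t) (ψ z)) : ∃ g, g * ψ z = ψ z * g ∧ g * ψ t * g⁻¹ = s := by
  obtain ⟨g, rfl⟩ := isConj_iff.1 hs.1
  have a1 : IsConj (ψ t) (ψ t * (g⁻¹ * ψ z * g)) := hs.2.2.trans (isConj_iff.2 ⟨g⁻¹, by group⟩)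
  have a2 : g⁻¹ * ψ z * g * ψ t = ψ t * (g⁻¹ * ψ z * g) := comm_conj' hs.2.1.symm
  obtain ⟨w, hw⟩ := (mul_mem_cancel_left (⟨t, rfl⟩ : ψ t ∈ ψ.range)).1 (h.rng _ a1 (by rw [mul_assoc, a2]))
  obtain ⟨k, h1, h2⟩ := h.loc.z1 w (h.inj (by rw [map_mul, hw, map_one, sq_conj' h.zz]))
    (fun e => ne_conj' h.z1 g (by rw [← hw, e, map_one])) (h.cm.1 (hw ▸ a2))
    (fun e => h.nz ((ψ.map_isConj e).trans (isConj_iff.2 ⟨g, by rw [hw]; group⟩))) (h.cD.1 (by rwa [map_mul, hw]))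
  rw [← h2, map_mul, map_mul, map_inv] at hw
  refine ⟨g * ψ k, ?_, ?_⟩
  · rw [← mul_inv_eq_iff_eq_mul, show g * ψ k * ψ z * (g * ψ k)⁻¹ = g * (ψ k * ψ z * (ψ k)⁻¹) * g⁻¹ by group, hw]
    group
  · rw [show g * ψ k * ψ t * (g * ψ k)⁻¹ = g * (ψ k * ψ t * (ψ k)⁻¹) * g⁻¹ by group, h.cm.2 h1, mul_inv_cancel_right]

end Ov0

namespace Ov

variable (h : Ov ψ t z R)
include h

theorem frD {s g : G} (h1 : IsConj (ψ t) s) (h2 : s ∈ ψ.range) (h3 : g * s * g⁻¹ ∈ ψ.range) :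
    g ∈ normalizer (ψ.range : Set G) := by
  obtain ⟨x, rfl⟩ := h2
  obtain ⟨k, rfl⟩ := isConj_iff.1 (h.cD.1 h1)
  obtain ⟨k', c, h4, e⟩ := h.fr (g := g * ψ k) (by simpa [mul_assoc] using h3)
  exact (mul_mem_cancel_right (le_normalizer (⟨k, rfl⟩ : ψ k ∈ ψ.range))).1
    (e ▸ mul_mem (le_normalizer ⟨k', rfl⟩) (h.nrm c h4))

theorem last {n : G} (h1 : n * ψ z = ψ z * n) (h2 : n * ψ t * n⁻¹ = ψ t * ψ z) (h3 : n * n = 1) :
    ∃ l, IsConj t l ∧ n * ψ l = ψ l * n := by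
  obtain ⟨m, hm, hmt, hR⟩ := h.loc.exists_m
  have mz := h.cm.2 hm.2.1
  have zz := h.zz
  have hF : ∀ y ∈ R, ψ m ∈ Fix zz (ψ y) := fun y hy => ⟨mz, (Fix_symm hm.2.1 (hR hy)).2.imp
    (fun e => by simpa using congrArg ψ e) fun e => by simpa using congrArg ψ e⟩
  have mi : (ψ m)⁻¹ = ψ m := inv_eq_of_mul_eq_one_right (h.sq (h.cD.2 hm.1))
  replace hmt : ψ m * ψ t * (ψ m)⁻¹ = ψ t * ψ z := by simpa using congrArg ψ hmt
  have ne : ∀ y : G, y * ψ z ≠ y := fun y e => h.z1 (by simpa using e)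
  have e4 : ∀ y, n * (n * y * n⁻¹) * n⁻¹ = y := fun y => by
    rw [show n * (n * y * n⁻¹) * n⁻¹ = n * n * y * (n * n)⁻¹ by group, h3]; group
  obtain ⟨hN, ⟨l, l1, l2, l3, e⟩ | ⟨y, hy, e⟩ | ⟨y, hy, e1, e2⟩⟩ := h.act (n * ψ m) (by
      rw [← mul_inv_eq_iff_eq_mul, show n * ψ m * ψ t * (n * ψ m)⁻¹ = n * (ψ m * ψ t * (ψ m)⁻¹) * n⁻¹ by group,
        hmt, conj_mul_z h1, h2, mul_assoc, zz, mul_one]) (mul_z h1 mz)
  · rcases exists_comm (hz := zz) ⟨h1, .inr h2⟩ ((mul_mem_cancel_right (hF l l1)).1 ⟨mul_z h1 mz, e⟩)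
      (h.cm.2 (h.loc.Rz l l1)) with e | e | e
    · exact (ne _ (by rw [← h2, e, mul_inv_cancel_right])).elim
    · exact ⟨l, l2, e⟩
    · exact ⟨_, l3, by rwa [map_mul]⟩
  · exfalso
    rw [show n * ψ m * ψ y * (n * ψ m)⁻¹ = n * (ψ m * ψ y * (ψ m)⁻¹) * n⁻¹ by group] at e
    have e' : n * ψ y * n⁻¹ = ψ y * ψ t ∨ n * ψ y * n⁻¹ = ψ y * ψ t * ψ z := by
      rcases (hF y hy).2 with e3 | e3 <;> rw [e3] at e
      · exact e
      · rw [conj_mul_z h1] at e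
        rcases e with e | e
        · right; rw [← e, mul_assoc _ (ψ z), zz, mul_one]
        · left; exact mul_right_cancel e
    have e4 := e4 (ψ y)
    apply ne (ψ y)
    rcases e' with e | e
    · rwa [e, ← conj_mul, e, h2, mul_assoc, ← mul_assoc (ψ t), h.tt, one_mul] at e4
    · rwa [e, conj_mul_z h1, ← conj_mul, e, h2, mul_assoc _ (ψ t * ψ z), mul_assoc (ψ t) (ψ z), zz, mul_one,
        mul_assoc _ (ψ z), ← h.cm.2 h.loc.tz, mul_assoc, ← mul_assoc (ψ t), h.tt, one_mul] at e4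
  · obtain ⟨y', hy', e⟩ := hN y hy
    have h4 : n * ψ m * (n * ψ m) ∈ Fix zz (ψ y) := by
      refine (mul_mem_cancel_left (hF y hy)).1 ?_
      have := Fix_conj (inv_z (mul_z h1 mz)) (hF y' hy')
      rw [← e, show (n * ψ m)⁻¹ * (n * ψ m * ψ y * (n * ψ m)⁻¹) * (n * ψ m)⁻¹⁻¹ = ψ y by group] at this
      rwa [mul_inv_rev, mul_inv_rev, inv_inv, inv_inv, mi, inv_eq_of_mul_eq_one_right h3, mul_assoc (ψ m),
        mul_assoc (ψ m)] at this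
    exact (h4.2.elim e1 e2).elim

theorem Dl {w : G} (h0 : w ∈ normalizer (ψ.range : Set G)) (h1 : w * w = 1) (h2 : w * ψ z = ψ z * w) :
    ∃ l, IsConj t l ∧ w * ψ l = ψ l * w := by
  obtain ⟨Q, hQ⟩ := exists_NQ h.loc
  obtain ⟨α, hα⟩ : ∃ α : H →* H, ∀ x, ψ (α x) = w * ψ x * w⁻¹ := by
    choose α hα using fun x => (mem_normalizer_iff.1 h0 _).1 (⟨x, rfl⟩ : ψ x ∈ ψ.range)
    exact ⟨MonoidHom.mk' α fun a b => h.inj (by rw [map_mul, hα, hα, hα, map_mul, conj_mul]), hα⟩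
  have hww : ∀ x, α (α x) = x := fun x => h.inj (by
    rw [hα, hα, show w * (w * ψ x * w⁻¹) * w⁻¹ = w * w * ψ x * (w * w)⁻¹ by group, h1]; group)
  have hz : α z = z := h.inj (by rw [hα, conj_z h2])
  have hT : ∀ {x}, x ∈ TT t z → α x ∈ TT t z := fun hx => h.cT.1 (hα _ ▸ TT_conj (h.cT.2 hx) h2)
  have zz := h.loc.zz
  obtain ⟨s, hs, hc⟩ : ∃ s ∈ TT t z, s * α s = α s * s := by
    obtain ⟨-, -, a, b, -, -, ha, hb, hab, -⟩ := h.loc.tri
    have ha' := hT ha.1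
    have hb' := hT hb.1
    have key : ∀ x ∈ TT t z, ∀ y ∈ TT t z, x * y = y * x ∨ x * y = y * x * z := fun x hx y hy =>
      (Fix_of_sq (hz := zz) hQ.Qz hQ.sq (hQ.T x hx) (hQ.T y hy)).2.imp mul_inv_eq_iff_eq_mul.1
        fun e => by rw [mul_inv_eq_iff_eq_mul.1 e, mul_assoc, ← hx.2.1, mul_assoc]
    rcases key a ha.1 _ ha' with e1 | e1
    · exact ⟨a, ha.1, e1⟩
    rcases key b hb.1 _ hb' with e2 | e2
    · exact ⟨b, hb.1, e2⟩
    refine ⟨a * b, hab, ?_⟩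
    have hz' : ∀ x ∈ [a, b, α a, α b], x * z = z * x := by
      simp only [List.forall_mem_cons]
      exact ⟨ha.1.2.1, hb.1.2.1, ha'.2.1, hb'.2.1, by simp⟩
    rw [map_mul]
    rcases key a ha.1 _ hb' with e3 | e3 <;> have := congrArg α e3 <;> simp only [map_mul, hww, hz] at this
    · exact four_comm (c := 1) zz (one_mul 1) hz' (by simp) e1 e2 (by rw [e3, mul_one]) (by rw [mul_one, this])
    · exact four_comm (c := z) zz zz hz' hz' e1 e2 e3 (by rw [this, mul_assoc _ z z, zz, mul_one])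
  have fx : ∀ {x}, α x = x → w * ψ x = ψ x * w := fun e => mul_inv_eq_iff_eq_mul.1 (by rw [← hα, e])
  by_cases e : α s = s
  · exact ⟨s, hs.1, fx e⟩
  have s2 := h.loc.sq hs.1
  have s2' := h.loc.sq (hT hs).1
  have vs : s * α s * s = s * (s * α s) := by rw [mul_assoc, ← hc]
  have sv : s * (s * α s) = α s := by rw [← mul_assoc, s2, one_mul]
  have vw : α (s * α s) = s * α s := by rw [map_mul, hww, hc]
  generalize hv : s * α s = v at *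
  by_cases hvD : IsConj t v
  · exact ⟨v, hvD, fx vw⟩
  have v2 : v * v = 1 := by
    nth_rewrite 1 [← hv]
    rw [hc, mul_assoc, ← mul_assoc (α s), s2', one_mul, s2]
  obtain ⟨g, hg⟩ := isConj_iff.1 hs.1
  obtain ⟨k, k1, k2⟩ := h.loc.z1 _ (sq_conj' v2 g) (ne_conj' (fun e' => e (by rw [← sv, e', mul_one])) g)
    (comm_conj' (hg ▸ vs)) (fun e' => hvD (e'.trans (isConj_iff.2 ⟨g, by group⟩)))
    ((hT hs).1.trans (isConj_iff.2 ⟨g⁻¹, by rw [← sv, ← hg]; group⟩))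
  have f1 : ψ (g * k) * ψ t * (ψ (g * k))⁻¹ = ψ s := by
    rw [← map_inv, ← map_mul, ← map_mul, show g * k * t * (g * k)⁻¹ = g * (k * t * k⁻¹) * g⁻¹ by group, k1,
      mul_inv_cancel_right, hg]
  have f2 : ψ (g * k) * ψ z * (ψ (g * k))⁻¹ = ψ v := by
    rw [← map_inv, ← map_mul, ← map_mul, show g * k * z * (g * k)⁻¹ = g * (k * z * k⁻¹) * g⁻¹ by group, k2]
    congr 1; group
  generalize g * k = u at f1 f2
  obtain ⟨l, l1, l2⟩ := h.last (n := (ψ u)⁻¹ * w * ψ u) (comm_conj' (by rw [f2, fx vw])) (by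
    calc (ψ u)⁻¹ * w * ψ u * ψ t * ((ψ u)⁻¹ * w * ψ u)⁻¹ = (ψ u)⁻¹ * (w * (ψ u * ψ t * (ψ u)⁻¹) * w⁻¹) * ψ u := by group
      _ = (ψ u)⁻¹ * (ψ u * ψ t * (ψ u)⁻¹ * (ψ u * ψ z * (ψ u)⁻¹)) * ψ u := by rw [f1, f2, ← map_mul, sv, hα]
      _ = _ := by group) (sq_conj' h1 _)
  refine ⟨u * l * u⁻¹, isConj_conj l1 u, ?_⟩
  have := comm_conj l2 (ψ u)
  rwa [show ψ u * ((ψ u)⁻¹ * w * ψ u) * (ψ u)⁻¹ = w by group, ← map_inv, ← map_mul, ← map_mul] at this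

theorem DN {s : G} (h0 : s ∈ normalizer (ψ.range : Set G)) (h1 : IsConj (ψ t) s) (h2 : s * ψ z = ψ z * s) :
    s ∈ ψ.range :=
  (h.Dl h0 (h.sq h1) h2).elim fun l e => h.cl (h.cD.2 e.1) ⟨l, rfl⟩ h1 e.2

theorem cz {g : G} (hg : g * ψ z = ψ z * g) : g ∈ normalizer (ψ.range : Set G) := by
  obtain ⟨Q, h1, h2, h3, -⟩ := h.loc.exists_Q
  have cz : ∀ g : centralizer ({ψ z} : Set G), (g : G) * ψ z = ψ z * g := fun g => mem_centralizer_singleton_iff.1 g.2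
  let f : centralizer ({z} : Set H) →* centralizer ({ψ z} : Set G) := (ψ.comp (Subgroup.subtype _)).codRestrict _ fun x =>
    mem_centralizer_singleton_iff.2 (h.cm.2 (mem_centralizer_singleton_iff.1 x.2))
  have := (TIHyp_map h3 f (fun a b e => Subtype.ext (h.inj (congrArg Subtype.val e))) (T := {s | s.1 ∈ TT (ψ t) (ψ z)})
    (fun x => h.cT) (fun g => Subtype.ext (cz g)) (fun s hs => Subtype.ext (h.sq hs.1))
    (fun s hs => ⟨hs.2.2, cz _, by change IsConj _ (s.1 * ψ z * ψ z); rw [mul_assoc, h.zz, mul_one]; exact hs.1⟩)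
    (fun s hs g => TT_conj hs (cz g)) (fun s hs s' hs' => by
      obtain ⟨g, hg, e⟩ := h.tr hs
      obtain ⟨g', hg', e'⟩ := h.tr hs'
      exact isConj_iff.2 ⟨⟨g' * g⁻¹, mem_centralizer_singleton_iff.2 (mul_z hg' (inv_z hg))⟩,
        Subtype.ext (by simp only [coe_mul, coe_inv]; rw [← e, ← e']; group)⟩) fun s hs s' hs' e => by
      obtain ⟨x, hx⟩ := h.DN (h.frD (h.cD.2 hs.1) ⟨s, rfl⟩ (e.elim (fun e => ⟨s, (congrArg Subtype.val e).symm⟩)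
        fun e => ⟨s * z, (map_mul ψ _ _).trans (congrArg Subtype.val e).symm⟩)) hs'.1 (cz s')
      exact ⟨⟨x, mem_centralizer_singleton_iff.2 (h.cm.1 (hx ▸ cz s'))⟩, Subtype.ext hx⟩).normal
  obtain ⟨x, -, e⟩ := this.conj_mem _ (mem_map_of_mem f (show ⟨t, h2 (h1 h.loc.tR)⟩ ∈ Q.subgroupOf _ from h1 h.loc.tR))
    ⟨g, mem_centralizer_singleton_iff.2 hg⟩
  exact h.frD (.refl _) ⟨t, rfl⟩ ⟨x, congrArg Subtype.val e⟩

theorem odd : ¬ 2 ∣ (normalizer (ψ.range : Set G)).index := by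
  have : Fact (Nat.Prime 2) := ⟨Nat.prime_two⟩
  obtain ⟨Q, hQ⟩ := exists_QD h.loc
  obtain ⟨S, hS, hQS⟩ := Tech.exists_isSylowIn_ge (H := centralizer {ψ z})
    ((IsPGroup.of_card (p := 2) (n := 9) (hQ.card h.loc)).map ψ) (by
      rintro _ ⟨a, ha, rfl⟩; exact mem_centralizer_singleton_iff.2 (h.cm.2 (hQ.Qz a ha)))
  have hT : Tech.IsSylowIn 2 S ⊤ := by
    by_contra hn
    obtain ⟨P, p1, p2, -, p3⟩ := Tech.exists_lt_pgroup_normalizer hS.pgroup le_top hn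
    refine p2.ne' (hS.eq_of_le p1 p2.le fun x hx => mem_centralizer_singleton_iff.2 (mul_inv_eq_iff_eq_mul.1 ?_))
    have hc : ∀ a ∈ Q, x * ψ z * x⁻¹ * ψ a = ψ a * (x * ψ z * x⁻¹) := fun a ha => by
      have := comm_conj (mem_centralizer_singleton_iff.1
        (hS.le (Tech.conj_mem_of_mem_normalizer' (p3 hx) (hQS (mem_map_of_mem ψ ha))))) x
      rwa [show x * (x⁻¹ * ψ a * x) * x⁻¹ = ψ a by group, eq_comm] at this
    obtain ⟨y, hy, e⟩ := h.cen _ (by rw [conj_mul, h.zz]; simp) fun r hr => hc r (hQ.le hr)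
    rcases hQ.Z y (hQ.le hy) fun b hb => h.cm.1 (e ▸ hc b hb) with rfl | rfl
    · exact absurd (conj_eq_one_iff.1 (e.symm.trans (map_one ψ))) h.z1
    · exact e.symm
  exact fun e => hT.not_dvd (relIndex_top_right S ▸ e.trans (index_dvd_of_le fun x hx =>
    h.cz (mem_centralizer_singleton_iff.1 (hS.le hx))))

theorem surj [IsSimpleGroup G] {M : Subgroup G} (h1 : ∀ w ∈ M, w * w = 1 → w ∈ ψ.range)
    (h2 : ∀ a ∈ normalizer (ψ.range : Set G), ∀ b ∈ normalizer (ψ.range : Set G), a ∈ M ∨ b * a ∈ M ∨ b ∈ M) :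
    Function.Surjective ψ := by
  have t1 : ψ t ≠ 1 := fun e => by simpa [e] using h.ord (.refl _)
  have cls : ∀ w ∈ normalizer (ψ.range : Set G), orderOf w = 2 → IsConj (ψ t) w ∨ IsConj (ψ z) w := fun w hw ho => by
    have w2 : w * w = 1 := by rw [← pow_two, ← ho, pow_orderOf_eq_one]
    obtain ⟨g, hg⟩ : ∃ g, g * w * g⁻¹ ∈ M := by
      by_cases hM : w ∈ M
      · exact ⟨1, by simpa using hM⟩
      refine (Transfer.thompson_transfer h.odd (relIndex_eq_two_iff_exists_notMem_and.2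
        ⟨w, hw, hM, fun b hb => (h2 w hw b hb).resolve_left hM⟩) ho).resolve_left ?_
      rintro ⟨N, n1, n2, n3⟩
      obtain rfl := n1.eq_bot_or_eq_top.resolve_right fun e => n3 (e ▸ mem_top w)
      have := (mul_mem_iff_of_index_two n2 (a := ψ t) (b := ψ z)).2 (iff_of_false t1 h.z1)
      exact h.nz (mul_left_cancel (h.tt.trans (mem_bot.1 this).symm) ▸ IsConj.refl _)
    obtain ⟨x, hx⟩ := h1 _ hg (by rw [conj_mul, w2]; simp)
    have e : IsConj w (ψ x) := isConj_iff.2 ⟨g, hx.symm⟩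
    exact (h.loc.two_classes (w := x) (by
      rw [← orderOf_injective ψ h.inj x, hx, ← ho]; simpa using (MulAut.conj g).orderOf_eq w)).imp
      (fun e' => (e.trans (ψ.map_isConj e')).symm) fun e' => (e.trans (ψ.map_isConj e')).symm
  have dz : ∀ s, IsConj (ψ t) s → s * ψ z = ψ z * s → s ∈ ψ.range := fun s a b => h.DN (h.cz b) a b
  have key : ∀ s, IsConj (ψ t) s → s ∈ ψ.range := fun s hs => by
    rcases Nat.even_or_odd (orderOf (s * ψ z)) with he | ho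
    swap
    · obtain ⟨w, -, e, -⟩ := StrEmb.exists_swap_of_odd (h.sq hs) h.zz ho
      exact absurd (hs.trans (isConj_iff.2 ⟨w, e⟩)) h.nz
    obtain ⟨k, a, b, c⟩ := StrEmb.exists_central_of_even (h.sq hs) h.zz he
    generalize (s * ψ z) ^ k = w at a b c
    rcases cls w (h.cz c.symm) a with e | e
    · exact h.cl e (dz w e c.symm) hs b
    obtain ⟨l, l1, l2⟩ := h.Dl (h.cz c.symm) (by rw [← pow_two, ← a, pow_orderOf_eq_one]) c.symm
    obtain ⟨g, rfl⟩ := isConj_iff.1 e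
    have hg := h.frD (g := g⁻¹) (h.cD.2 l1) ⟨l, rfl⟩
      (by rw [inv_inv]; exact dz _ (isConj_conj' (h.cD.2 l1) g) (comm_conj' l2.symm))
    exact (mem_normalizer_iff.1 hg s).2 (by rw [inv_inv]; exact dz _ (isConj_conj' hs g) (comm_conj' b))
  rw [← MonoidHom.range_eq_top, eq_top_iff,
    ← (normalClosure_normal (s := {ψ t})).eq_bot_or_eq_top.resolve_left fun e =>
      t1 (mem_bot.1 (e.le (subset_normalClosure rfl)))]
  refine (closure_le _).2 fun s hs => ?_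
  obtain ⟨_, rfl, e⟩ := Group.mem_conjugatesOfSet_iff.1 hs
  exact key s e

end Ov

end CfsgLib.HNS
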